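import Cfsg.Agent.ChevalleyStructure.Elts
import Cfsg.Agent.H133.ScRels
import Cfsg.Agent.S1025

/-!
# The homomorphism from the group presented by (R1), (R2) onto the Chevalley group

Port of `ChevalleyStructure.StTheta` to `D.SteinbergCover K`.
-/

set_option autoImplicit false

namespace Cfsg.Agent.H133.ScTheta

open Cfsg.Lie Cfsg.Agent.ChevalleyStructure.Elts Cfsg.Agent.ChevalleyStructure

universe u

variable {K : Type u} [Field K] {D : ChevalleyDatum} (hD : InList D)

/-- The map on generators. -/
def gen : Fin D.nroots × K → GL D.Idx K := fun p => xG hD p.1 p.2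

theorem lift_stX (r : ℕ) (t : K) : FreeGroup.lift (gen hD) (D.stX r t) = xG hD r t := by
  by_cases hr : r < D.nroots
  · rw [ScRels.stX_of_lt hr, FreeGroup.lift_apply_of]; rfl
  · rw [ScRels.stX_of_not_lt hr, map_one, xG_of_not_lt hD hr]

theorem lift_stWord (w : List (ℕ × K)) : FreeGroup.lift (gen hD) (D.stWord w) = wordG hD w := by
  show FreeGroup.lift (gen hD) ((w.map fun p => D.stX p.1 p.2).prod) = (w.map fun p => xG hD p.1 p.2).prod
  rw [map_list_prod, List.map_map]
  congr 1
  exact List.map_congr_left fun p _ => lift_stX hD p.1 p.2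

theorem lift_rel : ∀ r ∈ D.steinbergRelsAB K, FreeGroup.lift (gen hD) r = 1 := by
  rintro g (⟨r, t₁, t₂, _, rfl⟩ | ⟨r, s, t, u, hr, hs, hsr, hsn, rfl⟩)
  · rw [map_mul, map_mul, map_inv, lift_stX, lift_stX, lift_stX, xG_add, mul_inv_cancel]
  · rw [map_mul, map_mul, map_mul, map_mul, map_inv, map_inv, map_inv, lift_stX, lift_stX, lift_stWord]
    have h : xG hD s u * xG hD r t = xG hD r t * xG hD s u * wordG hD (D.commWord K r s t u) := by
      apply Units.ext
      rw [Units.val_mul, Units.val_mul, Units.val_mul, coe_xG, coe_xG, coe_wordG]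
      exact Cfsg.Agent.S1025.result D hD r s hr hs hsr hsn t u
    have h' : (xG hD s u)⁻¹ * (xG hD r t)⁻¹ * xG hD s u * xG hD r t = wordG hD (D.commWord K r s t u) := by
      rw [mul_assoc ((xG hD s u)⁻¹ * (xG hD r t)⁻¹), h]; group
    rw [h', mul_inv_cancel]

/-- The homomorphism into the general linear group. -/
def thetaGL (K : Type u) [Field K] : D.SteinbergCover K →* GL D.Idx K :=
  PresentedGroup.toGroup (f := gen hD) (lift_rel (K := K) hD)

theorem thetaGL_scGen (r : ℕ) (t : K) : thetaGL hD K (D.scGen K r t) = xG hD r t := by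
  by_cases hr : r < D.nroots
  · rw [ScRels.scGen_of_lt hr]
    exact PresentedGroup.toGroup.of (lift_rel hD)
  · rw [ScRels.scGen_of_not_lt hr, map_one, xG_of_not_lt hD hr]

theorem thetaGL_mem (g : D.SteinbergCover K) : thetaGL hD K g ∈ D.group K := by
  have h : g ∈ (D.group K).comap (thetaGL hD K) := by
    apply ScRels.mem_of_gens
    intro r _ t
    rw [Subgroup.mem_comap, thetaGL_scGen]
    exact xG_mem_group hD r t
  exact h

/-- The homomorphism onto the Chevalley group. -/
def theta (K : Type u) [Field K] : D.SteinbergCover K →* ↥(D.group K) :=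
  (thetaGL hD K).codRestrict (D.group K) (thetaGL_mem hD)

theorem coe_theta (g : D.SteinbergCover K) : ((theta hD K g : ↥(D.group K)) : GL D.Idx K) = thetaGL hD K g := rfl

theorem theta_scGen (r : ℕ) (t : K) :
    ((theta hD K (D.scGen K r t) : GL D.Idx K) : Matrix D.Idx D.Idx K) = D.x K r t := by
  rw [coe_theta, thetaGL_scGen, coe_xG]

theorem theta_surjective : Function.Surjective (theta hD K) := by
  rintro ⟨g, hg⟩
  have h : D.group K ≤ (thetaGL hD K).range := by
    rw [group_le_iff hD]
    intro r _ t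
    exact ⟨D.scGen K r t, thetaGL_scGen hD r t⟩
  obtain ⟨x, hx⟩ := h hg
  exact ⟨x, Subtype.ext hx⟩

end Cfsg.Agent.H133.ScTheta
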