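import Cfsg.Agent.H133.ScKer
import Cfsg.Agent.H133.ScTheta

/-!
# The group presented by (R1), (R2) is a central extension of the Chevalley group

`ker_le_center`: for the seven tabulated data and any field, the kernel of `x̄_r(t) ↦ x_r(t)` from `D.SteinbergCover K` is
contained in the centre. Also the conjugation formulas without the homomorphism as an argument (`n_conj`, `h_conj`).
-/

set_option autoImplicit false

namespace Cfsg.Agent.H133.ScCentral

open Cfsg.Lie Cfsg.Agent.ChevalleyStructure Cfsg.Agent.ChevalleyStructure.Elts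
  Cfsg.Agent.H133.ScTheta Cfsg.Agent.H133.ScRels

universe u

variable {K : Type u} [Field K] {D : ChevalleyDatum} (hD : InList D)

include hD

/-- `n̄_p x̄_s(t) n̄_p⁻¹ = x̄_{w_p(s)}(η t)` in the group presented by (R1), (R2), for all roots `s`. -/
theorem n_conj (i s : ℕ) (hi : i < D.rank) (hs : s < D.nroots) :
    ∃ η : ℤ, (η = 1 ∨ η = -1) ∧ ∀ t : K,
      mk D K (D.stN (D.simple i) 1) * D.scGen K s t =
        D.scGen K (D.reflectRoot i s) ((η : K) * t) * mk D K (D.stN (D.simple i) 1) :=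
  ScPres.n_conj hD (thetaGL hD K) (fun r t _ => by rw [thetaGL_scGen, coe_xG]) i s hi hs

/-- `h̄_p(c) x̄_s(t) h̄_p(c)⁻¹ = x̄_s(c^{A_{p,s}} t)` in the group presented by (R1), (R2), for all roots `s`. -/
theorem h_conj (i s : ℕ) (hi : i < D.rank) (hs : s < D.nroots) (c : K) (hc : c ≠ 0) (t : K) :
    mk D K (D.stH (D.simple i) c) * D.scGen K s t =
      D.scGen K s (c ^ (D.cartan i s) * t) * mk D K (D.stH (D.simple i) c) :=
  ScPres.h_conj hD (thetaGL hD K) (fun r t _ => by rw [thetaGL_scGen, coe_xG]) i s hi hs c hc t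

/-- The homomorphism onto the Chevalley group is injective on `Ū = ⟨x̄_r(t) : r > 0⟩`. -/
theorem theta_inj_pos {g : D.SteinbergCover K}
    (hg : g ∈ Subgroup.closure {x | ∃ (r : ℕ) (t : K), D.IsPosRoot r ∧ x = D.scGen K r t})
    (h1 : thetaGL hD K g = 1) : g = 1 :=
  ScPres.theta_inj_pos hD (thetaGL hD K) (fun r t _ => by rw [thetaGL_scGen, coe_xG]) hg h1

/-- The homomorphism onto the Chevalley group is injective on `V̄ = ⟨x̄_r(t) : r < 0⟩`. -/
theorem theta_inj_neg {g : D.SteinbergCover K}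
    (hg : g ∈ Subgroup.closure {x | ∃ (r : ℕ) (t : K), r < D.nroots ∧ ¬ D.IsPosRoot r ∧ x = D.scGen K r t})
    (h1 : thetaGL hD K g = 1) : g = 1 :=
  ScPres.theta_inj_neg hD (thetaGL hD K) (fun r t _ => by rw [thetaGL_scGen, coe_xG]) hg h1

/-- The kernel lies in `H̄ = ⟨h̄_p(t) : p fundamental, t ≠ 0⟩`. -/
theorem ker_le_H : (thetaGL hD K).ker ≤ ScKer.Hb D K :=
  ScKer.ker_le hD (thetaGL hD K) (fun r t _ => by rw [thetaGL_scGen, coe_xG])

/-- An element of `H̄` acts on each root subgroup by a scalar. -/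
theorem exists_scalar {g : D.SteinbergCover K} (hg : g ∈ ScKer.Hb D K) {s : ℕ} (hs : s < D.nroots) :
    ∃ a : K, a ≠ 0 ∧ ∀ t : K, g * D.scGen K s t * g⁻¹ = D.scGen K s (a * t) := by
  unfold ScKer.Hb at hg
  induction hg using Subgroup.closure_induction with
  | one => exact ⟨1, one_ne_zero, fun t => by rw [one_mul, one_mul, inv_one, mul_one]⟩
  | mem x hx =>
    obtain ⟨i, c, hi, hc, rfl⟩ := hx
    refine ⟨c ^ (D.cartan i s), zpow_ne_zero _ hc, fun t => ?_⟩
    rw [h_conj hD i s hi hs c hc t, mul_inv_cancel_right]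
  | mul x y _ _ ihx ihy =>
    obtain ⟨a, ha, hx⟩ := ihx
    obtain ⟨b, hb, hy⟩ := ihy
    refine ⟨a * b, mul_ne_zero ha hb, fun t => ?_⟩
    have e : x * y * D.scGen K s t * (x * y)⁻¹ = x * (y * D.scGen K s t * y⁻¹) * x⁻¹ := by group
    rw [e, hy t, hx (b * t), mul_assoc]
  | inv x _ ih =>
    obtain ⟨a, ha, hx⟩ := ih
    refine ⟨a⁻¹, inv_ne_zero ha, fun t => ?_⟩
    have h := hx (a⁻¹ * t)
    rw [mul_inv_cancel_left₀ ha] at h
    rw [← h]; group

/-- The kernel of the homomorphism onto the Chevalley group is central. -/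
theorem kerGL_le_center : (thetaGL hD K).ker ≤ Subgroup.center (D.SteinbergCover K) := by
  intro g hg
  have hgH := ker_le_H hD hg
  have hg1 : thetaGL hD K g = 1 := MonoidHom.mem_ker.1 hg
  rw [Subgroup.mem_center_iff]
  have hcent : ∀ x : D.SteinbergCover K, x ∈ Subgroup.centralizer {g} := by
    apply mem_of_gens
    intro s hs t
    obtain ⟨a, -, ha⟩ := exists_scalar hD hgH hs
    have h1 := congrArg (thetaGL hD K) (ha t)
    rw [map_mul, map_mul, map_inv, hg1, one_mul, inv_one, mul_one, thetaGL_scGen, thetaGL_scGen] at h1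
    have h2 : t = a * t := xG_injective hD hs h1
    have h3 := ha t
    rw [← h2] at h3
    rw [Subgroup.mem_centralizer_singleton_iff]
    rw [mul_inv_eq_iff_eq_mul] at h3
    exact h3.symm
  intro x
  exact Subgroup.mem_centralizer_singleton_iff.1 (hcent x)

theorem ker_theta : (theta hD K).ker = (thetaGL hD K).ker := by
  ext g
  rw [MonoidHom.mem_ker, MonoidHom.mem_ker, ← coe_theta]
  exact ⟨fun h => by rw [h]; rfl, fun h => Subtype.ext h⟩

theorem ker_le_center : (theta hD K).ker ≤ Subgroup.center (D.SteinbergCover K) := by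
  rw [ker_theta]
  exact kerGL_le_center hD

end Cfsg.Agent.H133.ScCentral
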